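import Cfsg.Agent.H297.QF.Tr
import Cfsg.Agent.H594.QF.VOne
import Cfsg.Agent.H594.QF.Cent
import Cfsg.Agent.H486.F4.KSeven
import Cfsg.Agent.H258.QF.Class
import Cfsg.Agent.H150.QF.Rt
import Cfsg.Agent.H461.QF.P1

/-!
# S2491, row F4 = `²E₆(2)`, K1: the root elements (helper461)

`re_iff` : the involutions whose centralizer contains a Sylow `2`-subgroup are the conjugates of the nontrivial element
of `X_θ`.
-/

set_option autoImplicit false
set_option linter.unusedSectionVars false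
set_option linter.unusedVariables false

namespace Cfsg.Agent.H461.QF.ReIff

open CoxeterSystem Cfsg.Agent.ChevalleyStructure.CoxeterGeom Cfsg.Agent.Tits.Roots Cfsg.Agent.Tits.Core
  Cfsg.Agent.Nodes Cfsg.Agent.Nodes.Reps Cfsg.Agent.Nodes.BNOf Cfsg.Agent.Nodes.RGDLib Cfsg.Agent.Nodes.Bruhat
  Cfsg.Agent.Nodes.OppDec Cfsg.Agent.Nodes.LeviDec Cfsg.Agent.Nodes.StabComb
open Cfsg.Lie Subgroup
open Cfsg.Agent.H231.QF (cs X V Lv P j1 j2 j3 j4 In Out CR Sm RE th KK)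
open Cfsg.Agent.H297.QF.Tr (UU)

universe u

variable {F : Type u} [Field F] [Fintype F] (hF : Fintype.card F = 4) {φ : F →+* F} (hφ : ∀ t, φ t = t ^ 2)

include hF hφ

theorem card_UU : Nat.card (UU φ) = 2 ^ 36 := Cfsg.Agent.H150.QF.card_U hF hφ

theorem exists_root : ∃ r ∈ X φ th, r ≠ 1 := by
  by_contra h
  push Not at h
  have h1 : X φ th = ⊥ := (Subgroup.eq_bot_iff_forall _).2 h
  have h2 := Cfsg.Agent.H594.QF.card_X_th hF hφ
  rw [h1, Subgroup.card_bot] at h2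
  norm_num at h2

/-- a Sylow `2`-subgroup of order `2 ^ 36` is conjugate to `U` -/
theorem exists_conj {Q : Subgroup (KK F)} (hQ : Nat.card Q = 2 ^ 36) :
    ∃ x : KK F, ∀ v ∈ UU φ, ∃ q ∈ Q, v = x * q * x⁻¹ := by
  have : Finite (KK F) := inferInstance
  have : Fact (Nat.Prime 2) := ⟨Nat.prime_two⟩
  have hf : (Nat.card (KK F)).factorization 2 = 36 := by
    obtain ⟨S⟩ := (inferInstance : Nonempty (Sylow 2 (KK F)))
    have h1 : IsPGroup 2 ↥(UU φ) := IsPGroup.of_card (card_UU hF hφ)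
    have h2 := (h1.toSylow (Cfsg.Agent.H297.QF.Tr.not_dvd_index hF hφ)).card_eq_multiplicity
    have h3 : Nat.card (UU φ) = 2 ^ (Nat.card (KK F)).factorization 2 := h2
    rw [card_UU hF hφ] at h3
    exact (Nat.pow_right_injective le_rfl h3).symm
  let S : Sylow 2 (KK F) := Sylow.ofCard (UU φ) (by rw [hf]; exact card_UU hF hφ)
  let T : Sylow 2 (KK F) := Sylow.ofCard Q (by rw [hf]; exact hQ)
  obtain ⟨x, hx⟩ := MulAction.exists_smul_eq (KK F) T S
  refine ⟨x, fun v hv => ?_⟩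
  have h1 : v ∈ (x • T : Sylow 2 (KK F)) := by
    rw [hx]
    exact hv
  rw [Sylow.smul_def] at h1
  obtain ⟨q, hq, rfl⟩ := h1
  exact ⟨q, hq, rfl⟩

theorem V_le_U : V φ j1 ≤ UU φ := by
  refine RGD.Sup_le fun z hz => RGD.le_Sup (X := X φ) ⟨hz.1, hz.2.1⟩

theorem mem_X_th {z : KK F} (h : ∀ v ∈ V φ j1, v * z = z * v) : z ∈ X φ th := by
  have : Finite (KK F) := inferInstance
  obtain ⟨r, hr, hr1⟩ := exists_root hF hφ
  obtain ⟨-, -, h3, hc⟩ := Cfsg.Agent.H594.QF.V1_struct hF hφ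
  have hzP : z ∈ P φ j1 := by
    rw [← Cfsg.Agent.H594.QF.centralizer_eq hF hφ hr hr1, mem_centralizer_singleton_iff]
    have h1 : r ∈ V φ j1 := Cfsg.Agent.H461.QF.X_le_V hr
    exact (h r h1).symm
  have hzV : z ∈ V φ j1 := by
    by_contra hn
    have h1 := Cfsg.Agent.H486.F4.rank_P hF hφ hzP hn
    have h2 : Nat.card {x : KK F // x ∈ V φ j1 ∧ z * x * z⁻¹ * x⁻¹ ∈ X φ th} = Nat.card (V φ j1) := by
      refine Nat.card_congr (Equiv.subtypeEquivRight fun x => ⟨fun h => h.1, fun hx => ⟨hx, ?_⟩⟩)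
      rw [← h x hx, mul_inv_cancel_right, mul_inv_cancel]
      exact one_mem _
    rw [h2, hc] at h1
    norm_num at h1
  exact h3 z hzV fun y hy => (h y hy).symm

/-- **K1** : the root elements -/
theorem re_iff (t : KK F) : RE t ↔ t ≠ 1 ∧ ∃ x : KK F, x * t * x⁻¹ ∈ X φ th := by
  have : Finite (KK F) := inferInstance
  have : Fact (Nat.Prime 2) := ⟨Nat.prime_two⟩
  constructor
  · rintro ⟨h1, -, h3⟩
    refine ⟨h1, ?_⟩
    obtain ⟨Q0, hQ0⟩ := Sylow.exists_subgroup_card_pow_prime 2 h3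
    obtain ⟨x, hx⟩ := exists_conj hF hφ (Q := Q0.map (centralizer ({t} : Set (KK F))).subtype) (by
      rw [← hQ0]
      exact (Nat.card_congr (Q0.equivMapOfInjective _ (Subgroup.subtype_injective _)).toEquiv).symm)
    refine ⟨x, mem_X_th hF hφ fun v hv => ?_⟩
    obtain ⟨q, ⟨q', -, rfl⟩, rfl⟩ := hx v (V_le_U hF hφ hv)
    have h4 := mem_centralizer_singleton_iff.1 q'.2
    change x * (q' : KK F) * x⁻¹ * (x * t * x⁻¹) = x * t * x⁻¹ * (x * (q' : KK F) * x⁻¹)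
    calc x * (q' : KK F) * x⁻¹ * (x * t * x⁻¹) = x * ((q' : KK F) * t) * x⁻¹ := by group
      _ = _ := by rw [h4]; group
  · rintro ⟨h1, x, hx⟩
    have hz1 : x * t * x⁻¹ ≠ 1 := by
      intro h
      apply h1
      calc t = x⁻¹ * (x * t * x⁻¹) * x := by group
        _ = 1 := by rw [h]; group
    refine ⟨h1, ?_, ?_⟩
    · have h2 : (⟨x * t * x⁻¹, hx⟩ : X φ th) ^ Nat.card (X φ th) = 1 := pow_card_eq_one'
      rw [Cfsg.Agent.H594.QF.card_X_th hF hφ] at h2
      have h3 : (x * t * x⁻¹) ^ 2 = 1 := congrArg Subtype.val h2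
      calc t * t = x⁻¹ * (x * t * x⁻¹) ^ 2 * x := by rw [pow_two]; group
        _ = 1 := by rw [h3]; group
    · have h2 : (UU φ).map (MulAut.conj x⁻¹).toMonoidHom ≤ centralizer ({t} : Set (KK F)) := by
        rintro _ ⟨u, hu, rfl⟩
        have h3 : u ∈ centralizer ({x * t * x⁻¹} : Set (KK F)) := by
          rw [Cfsg.Agent.H594.QF.centralizer_eq hF hφ hx hz1]
          exact Cfsg.Agent.H297.QF.Tr.UU_le_P φ j1 hu
        rw [mem_centralizer_singleton_iff] at h3 ⊢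
        change x⁻¹ * u * x⁻¹⁻¹ * t = t * (x⁻¹ * u * x⁻¹⁻¹)
        calc x⁻¹ * u * x⁻¹⁻¹ * t = x⁻¹ * (u * (x * t * x⁻¹)) * x := by group
          _ = _ := by rw [h3]; group
      have h3 := Subgroup.card_dvd_of_le h2
      have h4 : Nat.card ((UU φ).map (MulAut.conj x⁻¹).toMonoidHom) = 2 ^ 36 := by
        rw [← card_UU hF hφ]
        exact (Nat.card_congr ((UU φ).equivMapOfInjective _ (MulAut.conj x⁻¹).injective).toEquiv).symm
      rwa [h4] at h3

end Cfsg.Agent.H461.QF.ReIff
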